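import Cfsg.Agent.OrthPrimeClasses.Realise
import Cfsg.Agent.QuadCount.Zeros
import Cfsg.Agent.OrthGeo.QuadOdd

/-!
The numbers of classes of elements of odd prime order in the orthogonal groups.
-/

set_option autoImplicit false
set_option linter.unusedSectionVars false

namespace CfsgLib.OrthPrimeClasses

open Polynomial Module Cfsg.Geo CfsgLib.Classical.Semisimple CfsgLib.Spec53 CfsgLib.SelfDualCount
  CfsgLib.Classical.Orth
open scoped _root_.Classical Matrix

variable {F : Type*} [Field F] [Fintype F] {r : ℕ} [hr : Fact r.Prime] {i t m : ℕ}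

theorem pow_plus_eq_one (hrF : (r : F) ≠ 0) (hm : 1 ≤ m)
    (h : r ∣ Nat.card {v : Fin m ⊕ Fin m → F // Cfsg.quadFormPlus m F v = 1}) :
    (Fintype.card F : ZMod r) ^ m = 1 := by
  have e : {v : Fin m ⊕ Fin m → F // Cfsg.quadFormPlus m F v = 1} ≃
      {p : (Fin m → F × F) × Unit // (∑ j, (p.1 j).1 * (p.1 j).2) + (fun _ : Unit => (-1 : F)) p.2 = 0} :=
    ((QuadZeros.pairEquiv m).trans (Equiv.prodPUnit _).symm).subtypeEquiv fun v => by
      simp [Cfsg.quadFormPlus, QuadZeros.pairEquiv, ← sub_eq_add_neg, sub_eq_zero]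
  have h1 := QuadZeros.card_zeros_hyperbolic (fun _ : Unit => (-1 : F)) m
  rw [← Nat.card_congr e] at h1
  haveI : IsEmpty {w : Unit // (fun _ : Unit => (-1 : F)) w = 0} := ⟨fun w => by simpa using w.2⟩
  rw [Nat.card_of_isEmpty (α := {w : Unit // (fun _ : Unit => (-1 : F)) w = 0})] at h1
  have h2 := congrArg (Nat.cast : ℕ → ZMod r) h1
  simp only [Nat.cast_add, Nat.cast_mul, Nat.cast_pow, (ZMod.natCast_eq_zero_iff _ _).2 h,
    Nat.card_unique, Nat.cast_one, Nat.cast_zero, mul_zero, zero_add, mul_one] at h2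
  rw [two_mul, pow_add] at h2
  have hq : (Fintype.card F : ZMod r) ^ m ≠ 0 := pow_ne_zero _ fun h0 => by
    have := orderOf_card_pos' (F := F) (r := r) hrF
    rw [h0, orderOf_zero] at this
    omega
  exact (mul_left_cancel₀ hq (by rw [mul_one]; exact h2)).symm

theorem pow_minus_eq_neg_one (hrF : (r : F) ≠ 0) {a c : F}
    (hac : ∀ z₁ z₂ : F, z₁ ^ 2 + a * z₁ * z₂ + c * z₂ ^ 2 = 0 → z₁ = 0 ∧ z₂ = 0) (M : ℕ)
    (h : r ∣ Nat.card {v : (Fin M ⊕ Fin M) ⊕ Fin 2 → F // Cfsg.quadFormMinus M F a c v = 1}) :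
    (Fintype.card F : ZMod r) ^ (M + 1) = -1 := by
  let f : (Fin 2 → F) → F := fun z => binForm a c z - 1
  have e : {v : (Fin M ⊕ Fin M) ⊕ Fin 2 → F // Cfsg.quadFormMinus M F a c v = 1} ≃
      {p : (Fin M → F × F) × (Fin 2 → F) // (∑ j, (p.1 j).1 * (p.1 j).2) + f p.2 = 0} :=
    ((Equiv.sumArrowEquivProdArrow _ _ F).trans
      ((QuadZeros.pairEquiv M).prodCongr (Equiv.refl _))).subtypeEquiv fun v => by
      simp only [Cfsg.quadFormMinus, f, binForm, Equiv.trans_apply, Equiv.prodCongr_apply,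
        Equiv.sumArrowEquivProdArrow_apply_fst, Equiv.sumArrowEquivProdArrow_apply_snd, Prod.map,
        QuadZeros.pairEquiv, Equiv.coe_refl, id]
      simp [← add_sub_assoc, sub_eq_zero]
  have h1 := QuadZeros.card_zeros_hyperbolic f M
  rw [← Nat.card_congr e, Nat.card_congr (Equiv.subtypeEquivRight fun z =>
    (show f z = 0 ↔ binForm a c z = 1 from sub_eq_zero)), card_conic a c hac,
    Nat.card_eq_fintype_card (α := Fin 2 → F), Fintype.card_fun, Fintype.card_fin] at h1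
  have h2 := congrArg (Nat.cast : ℕ → ZMod r) h1
  simp only [Nat.cast_add, Nat.cast_mul, Nat.cast_pow, (ZMod.natCast_eq_zero_iff _ _).2 h,
    Nat.cast_one, mul_zero, zero_add] at h2
  have hq : (Fintype.card F : ZMod r) ^ (M + 1) ≠ 0 := pow_ne_zero _ fun h0 => by
    have := orderOf_card_pos' (F := F) (r := r) hrF
    rw [h0, orderOf_zero] at this
    omega
  refine eq_neg_of_add_eq_zero_left (mul_left_cancel₀ hq ?_)
  linear_combination -h2

/-- The realised polynomials. -/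
theorem card_realised {ι : Type} [Fintype ι] [DecidableEq ι] {Q : (ι → F) → F} (hrF : (r : F) ≠ 0)
    {w T n : ℕ} (hw : ∀ A ∈ atoms (RingHom.id F) r, A.natDegree = w) (hw0 : 0 < w)
    (hT : (atoms (RingHom.id F) r).card = T) (hn : Fintype.card ι = n + 1) (bad : Prop) [Decidable bad]
    (hyes : ∀ χ, IsAdm (RingHom.id F) r (n + 1) χ → (X - 1) ∣ χ ∨ ¬ bad → HasElt r Q χ)
    (hno : bad → ∀ χ, IsAdm (RingHom.id F) r (n + 1) χ → HasElt r Q χ → (X - 1) ∣ χ) :
    Nat.card {χ : F[X] // IsAdm (RingHom.id F) r (Fintype.card ι) χ ∧ HasElt r Q χ} =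
      if bad then (n / w + T).choose T else ((n + 1) / w + T).choose T := by
  rw [hn, ← hT]
  split_ifs with hb
  · rw [← card_adm id_invol hrF hw0 hw, ← card_adm_dvd n]
    exact Nat.card_congr (Equiv.subtypeEquivRight fun χ =>
      ⟨fun h => ⟨h.1, hno hb χ h.1 h.2⟩, fun h => ⟨h.1, hyes χ h.1 (Or.inl h.2)⟩⟩)
  · rw [← card_adm id_invol hrF hw0 hw]
    exact Nat.card_congr (Equiv.subtypeEquivRight fun χ =>
      ⟨fun h => h.1, fun h => ⟨h, hyes χ h (Or.inr hb)⟩⟩)

theorem choose_sub_top {A T : ℕ} (hA : 1 ≤ A) (hT : 1 ≤ T) :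
    (A - 1 + T).choose T - 1 = (A + T).choose T - 1 - (A + T - 1).choose (T - 1) := by
  obtain ⟨A, rfl⟩ := Nat.exists_eq_add_of_le hA
  obtain ⟨T, rfl⟩ := Nat.exists_eq_add_of_le hT
  rw [show 1 + A - 1 + (1 + T) = A + T + 1 by omega, show 1 + A + (1 + T) = A + T + 1 + 1 by omega,
    show 1 + T = T + 1 by omega, show A + T + 1 + 1 - 1 = A + T + 1 by omega, Nat.add_sub_cancel,
    Nat.choose_succ_succ' (A + T + 1) T]
  omega

theorem two_ne_zero_zmod (hr2 : r ≠ 2) : (2 : ZMod r) ≠ 0 := fun h4 => by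
  rw [show (2 : ZMod r) = ((2 : ℕ) : ZMod r) from Nat.cast_two.symm, ZMod.natCast_eq_zero_iff] at h4
  exact hr2 ((Nat.prime_dvd_prime_iff_eq hr.out Nat.prime_two).1 h4)

theorem card_odd_dim {p : ℕ} [Fact p.Prime] [CharP F p] (hr2 : r ≠ 2) (hrp : r ≠ p)
    (hq : Odd (Fintype.card F)) (hi : i = orderOf (Fintype.card F : ZMod r)) (ht : t * i = r - 1) :
    Nat.card {C : ConjClasses ↥(Cfsg.isometryGroup F (Cfsg.quadFormOdd m F)) //
        ∃ g : ↥(Cfsg.isometryGroup F (Cfsg.quadFormOdd m F)), ConjClasses.mk g = C ∧ orderOf g = r} =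
      if Odd i then Nat.choose (m / i + t / 2) (t / 2) - 1
      else Nat.choose ((2 * m + 1) / i + t) t - 1 := by
  have hrF : (r : F) ≠ 0 := natCast_ne_zero_of_ne hrp
  have hF2 : ringChar F ≠ 2 := fun h => by
    have := FiniteField.even_card_of_char_two h
    rw [Nat.odd_iff] at hq
    omega
  have h2 : (2 : F) ≠ 0 := Ring.two_ne_zero hF2
  obtain ⟨hT, hw⟩ := atoms_spec hr2 hrF hi ht
  have hi0 : 0 < i := hi ▸ orderOf_card_pos' hrF
  rw [card_classes (OrthGeo.isNondegenerateQuadraticForm_quadFormOdd m h2) hr2 p hrp,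
    card_realised hrF hw (by split_ifs <;> omega) hT (n := 2 * m) (by simp; omega) False
      (fun χ h _ => realise_odd hr2 h2 hrF hi hw rfl h) (fun h => h.elim), if_neg not_false]
  split_ifs with ho
  · rw [← Nat.div_div_eq_div_mul, show (2 * m + 1) / 2 = m by omega]
  · rfl

theorem card_plus {p : ℕ} [Fact p.Prime] [CharP F p] (hr2 : r ≠ 2) (hrp : r ≠ p) (hm : 1 ≤ m)
    (hi : i = orderOf (Fintype.card F : ZMod r)) (ht : t * i = r - 1) :
    Nat.card {C : ConjClasses ↥(Cfsg.isometryGroup F (Cfsg.quadFormPlus m F)) //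
        ∃ g : ↥(Cfsg.isometryGroup F (Cfsg.quadFormPlus m F)), ConjClasses.mk g = C ∧ orderOf g = r} =
      if Odd i then Nat.choose (m / i + t / 2) (t / 2) - 1
      else Nat.choose (2 * m / i + t) t - 1 -
        (if i ∣ 2 * m ∧ Odd (2 * m / i) then Nat.choose (2 * m / i + t - 1) (t - 1) else 0) := by
  have hrF : (r : F) ≠ 0 := natCast_ne_zero_of_ne hrp
  obtain ⟨hT, hw⟩ := atoms_spec hr2 hrF hi ht
  have hi0 : 0 < i := hi ▸ orderOf_card_pos' hrF
  have hQ := isNondegQF_quadFormPlus (F := F) m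
  have hn : 2 * m - 1 + 1 = 2 * m := by omega
  rw [card_classes hQ hr2 p hrp,
    card_realised hrF hw (by split_ifs <;> omega) hT (n := 2 * m - 1) (by simp; omega)
      (¬ Odd i ∧ i ∣ 2 * m ∧ Odd (2 * m / i))
      (fun χ h hc => realise_plus hr2 hrF hi hw rfl (hn ▸ h) (by
        rcases hc with hc | hc
        · exact Or.inl hc
        · by_cases ho : Odd i
          · exact Or.inr (Or.inl ho)
          · exact Or.inr (Or.inr fun h' => hc ⟨ho, h'⟩)))
      (fun hb χ _ he => ?_)]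
  · rw [hn]
    by_cases ho : Odd i
    · rw [if_pos ho, if_neg (fun h => h.1 ho), if_pos ho, if_pos ho]
      rw [Nat.mul_div_mul_left _ _ two_pos]
    · rw [if_neg ho, if_neg ho, if_neg ho]
      by_cases hb : i ∣ 2 * m ∧ Odd (2 * m / i)
      · rw [if_pos ⟨ho, hb⟩, if_pos hb]
        obtain ⟨⟨A, hA⟩, -⟩ := id hb
        have hA0 : 1 ≤ A := Nat.pos_of_ne_zero fun h => by rw [h, mul_zero] at hA; omega
        have ht0 : 1 ≤ t := Nat.pos_of_ne_zero fun h => by
          rw [h, zero_mul] at ht; have := hr.out.two_le; omega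
        rw [hA, Nat.mul_div_cancel_left _ hi0, show (i * A - 1) / i = A - 1 from ?_]
        · exact choose_sub_top hA0 ht0
        · obtain ⟨A, rfl⟩ := Nat.exists_eq_add_of_le hA0
          rw [Nat.add_sub_cancel_left, mul_add, mul_one, show i + i * A - 1 = (i - 1) + i * A by omega,
            Nat.add_mul_div_left _ _ hi0, Nat.div_eq_of_lt (by omega), zero_add]
      · rw [if_neg (fun h => hb h.2), if_neg hb, Nat.sub_zero]
  · by_contra hnd
    obtain ⟨ho, ⟨A, hA⟩, hAo⟩ := hb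
    rw [hA, Nat.mul_div_cancel_left _ hi0] at hAo
    have h1 := pow_plus_eq_one hrF hm (dvd_card_of_hasElt hQ he hnd)
    obtain ⟨k, hk⟩ := Nat.not_odd_iff_even.1 ho
    rw [show m = i / 2 * A by rw [show i / 2 = k by omega]; rw [hk] at hA; linarith, pow_mul,
      pow_half_eq_neg_one hrF hi (Nat.not_odd_iff_even.1 ho), hAo.neg_one_pow] at h1
    exact two_ne_zero_zmod hr2 (by linear_combination -h1)

theorem card_minus {p : ℕ} [Fact p.Prime] [CharP F p] (hr2 : r ≠ 2) (hrp : r ≠ p) (hm : 1 ≤ m)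
    {a c : F} (hac : ∀ z₁ z₂ : F, z₁ ^ 2 + a * z₁ * z₂ + c * z₂ ^ 2 = 0 → z₁ = 0 ∧ z₂ = 0)
    (hi : i = orderOf (Fintype.card F : ZMod r)) (ht : t * i = r - 1) :
    Nat.card {C : ConjClasses ↥(Cfsg.isometryGroup F (Cfsg.quadFormMinus (m - 1) F a c)) //
        ∃ g : ↥(Cfsg.isometryGroup F (Cfsg.quadFormMinus (m - 1) F a c)),
          ConjClasses.mk g = C ∧ orderOf g = r} =
      if Odd i then Nat.choose (m / i + t / 2) (t / 2) - 1 -
        (if i ∣ m then Nat.choose (m / i + t / 2 - 1) (t / 2 - 1) else 0)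
      else Nat.choose (2 * m / i + t) t - 1 -
        (if i ∣ 2 * m ∧ Even (2 * m / i) then Nat.choose (2 * m / i + t - 1) (t - 1) else 0) := by
  have hrF : (r : F) ≠ 0 := natCast_ne_zero_of_ne hrp
  obtain ⟨hT, hw⟩ := atoms_spec hr2 hrF hi ht
  have hi0 : 0 < i := hi ▸ orderOf_card_pos' hrF
  have hQ := isNondegQF_quadFormMinus (F := F) (m - 1) a c hac
  have hn : 2 * m - 1 + 1 = 2 * m := by omega
  have hdiv : ∀ w A : ℕ, 0 < w → 1 ≤ A → (w * A - 1) / w = A - 1 := by
    intro w A hw hA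
    obtain ⟨A, rfl⟩ := Nat.exists_eq_add_of_le hA
    rw [Nat.add_sub_cancel_left, mul_add, mul_one, show w + w * A - 1 = (w - 1) + w * A by omega,
      Nat.add_mul_div_left _ _ hw, Nat.div_eq_of_lt (by omega), zero_add]
  have ht0 : 1 ≤ t := Nat.pos_of_ne_zero fun h => by
    rw [h, zero_mul] at ht; have := hr.out.two_le; omega
  rw [card_classes hQ hr2 p hrp,
    card_realised hrF hw (by split_ifs <;> omega) hT (n := 2 * m - 1) (by simp; omega)
      ((Odd i ∧ i ∣ m) ∨ (¬ Odd i ∧ i ∣ 2 * m ∧ Even (2 * m / i)))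
      (fun χ h hc => realise_minus hr2 hrF hi hw rfl hac hm (hn ▸ h) hc)
      (fun hb χ _ he => ?_)]
  · rw [hn]
    by_cases ho : Odd i
    · rw [if_pos ho, if_pos ho, if_pos ho]
      by_cases hb : i ∣ m
      · rw [if_pos (Or.inl ⟨ho, hb⟩), if_pos hb]
        obtain ⟨A, rfl⟩ := id hb
        have hA0 : 1 ≤ A := Nat.pos_of_ne_zero fun h => by rw [h, mul_zero] at hm; omega
        have ht2 : 1 ≤ t / 2 := by
          have hev : Even (t * i) := by rw [ht]; exact hr.out.even_sub_one hr2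
          have htev : Even t :=
            ((Nat.even_mul.1 hev).resolve_right (Nat.not_even_iff_odd.2 ho))
          obtain ⟨s, hs⟩ := htev
          omega
        rw [← mul_assoc, hdiv _ _ (by omega) hA0, Nat.mul_div_cancel_left _ hi0]
        exact choose_sub_top hA0 ht2
      · rw [if_neg (fun h => h.elim (fun h => hb h.2) fun h => h.1 ho), if_neg hb, Nat.sub_zero,
          Nat.mul_div_mul_left _ _ two_pos]
    · rw [if_neg ho, if_neg ho, if_neg ho]
      by_cases hb : i ∣ 2 * m ∧ Even (2 * m / i)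
      · rw [if_pos (Or.inr ⟨ho, hb⟩), if_pos hb]
        obtain ⟨⟨A, hA⟩, -⟩ := id hb
        have hA0 : 1 ≤ A := Nat.pos_of_ne_zero fun h => by rw [h, mul_zero] at hA; omega
        rw [hA, hdiv _ _ hi0 hA0, Nat.mul_div_cancel_left _ hi0]
        exact choose_sub_top hA0 ht0
      · rw [if_neg (fun h => h.elim (fun h => ho h.1) fun h => hb h.2), if_neg hb, Nat.sub_zero]
  · by_contra hnd
    have h1 := pow_minus_eq_neg_one hrF hac (m - 1) (dvd_card_of_hasElt hQ he hnd)
    rw [show m - 1 + 1 = m by omega] at h1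
    rcases hb with ⟨ho, A, rfl⟩ | ⟨ho, ⟨A, hA⟩, hAe⟩
    · rw [pow_mul, hi, pow_orderOf_eq_one, one_pow] at h1
      exact two_ne_zero_zmod hr2 (by linear_combination h1)
    · rw [hA, Nat.mul_div_cancel_left _ hi0] at hAe
      obtain ⟨k, hk⟩ := Nat.not_odd_iff_even.1 ho
      rw [show m = i / 2 * A by rw [show i / 2 = k by omega]; rw [hk] at hA; linarith, pow_mul,
        pow_half_eq_neg_one hrF hi (Nat.not_odd_iff_even.1 ho), hAe.neg_one_pow] at h1
      exact two_ne_zero_zmod hr2 (by linear_combination h1)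

end CfsgLib.OrthPrimeClasses
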