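import Cfsg.Agent.OrthPrimeClasses.Blocks

/-!
Which polynomials are characteristic polynomials of isometries of order `r` of the standard forms.
-/

set_option autoImplicit false
set_option linter.unusedSectionVars false

namespace CfsgLib.OrthPrimeClasses

open Polynomial Module Cfsg.Geo CfsgLib.Classical.Semisimple CfsgLib.Spec53 CfsgLib.SelfDualCount
  CfsgLib.Classical.Orth
open scoped _root_.Classical Matrix

variable {F : Type*} [Field F] [Fintype F] {r : ℕ} [hr : Fact r.Prime] {i : ℕ}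

theorem monic_X_sub_one : (X - 1 : F[X]).Monic := by rw [← C_1]; exact monic_X_sub_C 1

theorem natDegree_X_sub_one : (X - 1 : F[X]).natDegree = 1 := by rw [← C_1]; exact natDegree_X_sub_C 1

theorem isAdm_div {n : ℕ} {a c : F[X]} (ha : a.Monic)
    (hs : conjRecip (RingHom.id F) a = a) (h : IsAdm (RingHom.id F) r n (a * c)) :
    IsAdm (RingHom.id F) r (n - a.natDegree) c := by
  obtain ⟨hm, hd, hsd, hf⟩ := h
  have hcm : c.Monic := ha.of_mul_monic_left hm
  refine ⟨hcm, ?_, ?_, fun P hP hPm hPd => hf P hP hPm (hPd.mul_left _)⟩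
  · rw [ha.natDegree_mul hcm] at hd; omega
  · rw [conjRecip_mul, hs] at hsd
    exact mul_left_cancel₀ ha.ne_zero hsd

/-- An admissible polynomial is a product of atoms and a power of `X - 1`. -/
theorem exists_decomp {n : ℕ} {χ : F[X]} (h : IsAdm (RingHom.id F) r n χ) :
    ∃ (D : Multiset F[X]) (j : ℕ), (∀ A ∈ D, A ∈ atoms (RingHom.id F) r) ∧
      χ = D.prod * (X - 1) ^ j := by
  induction n using Nat.strong_induction_on generalizing χ with
  | _ n ih =>
    obtain ⟨hm, hd, hs, hf⟩ := id h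
    rcases Nat.eq_zero_or_pos n with rfl | hn
    · exact ⟨0, 0, by simp, by rw [Multiset.prod_zero, pow_zero, one_mul]; exact hm.natDegree_eq_zero.1 hd⟩
    obtain ⟨T, hTm, hT, c, rfl⟩ := exists_monic_irreducible_factor χ fun hu => by
      have := natDegree_eq_zero_of_isUnit hu; omega
    rcases orbit_or_X_sub_one hT hTm (hf T hT hTm (dvd_mul_right _ _)) with rfl | hTo
    · have hc := isAdm_div monic_X_sub_one SelfDualCount.conjRecip_X_sub_one h
      obtain ⟨D, j, hD, rfl⟩ := ih _ (by rw [natDegree_X_sub_one]; omega) hc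
      exact ⟨D, j + 1, hD, by ring⟩
    · have hTd : T.natDegree ≠ 0 := (hT.natDegree_pos).ne'
      have hatom : atom (RingHom.id F) T ∣ T * c := by
        by_cases hfx : conjRecip (RingHom.id F) T = T
        · rw [atom, if_pos hfx]; exact dvd_mul_right _ _
        · obtain ⟨hi', hm', -⟩ := (mem_orbitPolys _).1 (dual_mem_orbit id_invol hTo)
          rw [atom, if_neg hfx]
          refine IsCoprime.mul_dvd ((hT.coprime_iff_not_dvd).2 fun hdv =>
            hfx (eq_of_monic_of_associated hTm hm' (hT.associated_of_dvd hi' hdv)).symm)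
            (dvd_mul_right _ _) ?_
          conv_rhs => rw [← hs]
          rw [conjRecip_mul]
          exact dvd_mul_right _ _
      obtain ⟨c', hc'⟩ := hatom
      rw [hc'] at h
      have hc := isAdm_div (monic_atom id_invol hTo) (conjRecip_atom id_invol hTo) h
      have hpos : 0 < (atom (RingHom.id F) T).natDegree := by
        unfold atom
        split_ifs
        · omega
        · rw [hTm.natDegree_mul ((mem_orbitPolys _).1 (dual_mem_orbit id_invol hTo)).2.1]; omega
      obtain ⟨D, j, hD, rfl⟩ := ih _ (by omega) hc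
      refine ⟨atom (RingHom.id F) T ::ₘ D, j, fun A hA => ?_, ?_⟩
      · rcases Multiset.mem_cons.1 hA with rfl | hA
        · exact Finset.mem_image_of_mem _ hTo
        · exact hD A hA
      · rw [hc', Multiset.prod_cons, mul_assoc]

variable {w : ℕ}

theorem monic_of_mem_atoms {A : F[X]} (hA : A ∈ atoms (RingHom.id F) r) : A.Monic := by
  obtain ⟨P, hP, rfl⟩ := Finset.mem_image.1 hA
  exact monic_atom id_invol hP

theorem natDegree_prod_atoms (hw : ∀ A ∈ atoms (RingHom.id F) r, A.natDegree = w)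
    (D : Multiset F[X]) (hD : ∀ A ∈ D, A ∈ atoms (RingHom.id F) r) :
    D.prod.Monic ∧ D.prod.natDegree = Multiset.card D * w := by
  induction D using Multiset.induction_on with
  | empty => simp
  | cons a D ih =>
    obtain ⟨h1, h2⟩ := ih fun A hA => hD A (Multiset.mem_cons_of_mem hA)
    have ha := hD a (Multiset.mem_cons_self _ _)
    rw [Multiset.prod_cons]
    refine ⟨(monic_of_mem_atoms ha).mul h1, ?_⟩
    rw [(monic_of_mem_atoms ha).natDegree_mul h1, h2, hw a ha, Multiset.card_cons]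
    ring

theorem decomp_degree {n : ℕ} {χ : F[X]} (h : IsAdm (RingHom.id F) r n χ)
    (hw : ∀ A ∈ atoms (RingHom.id F) r, A.natDegree = w) (hrF : (r : F) ≠ 0) :
    ∃ (D : Multiset F[X]) (j : ℕ), (∀ A ∈ D, A ∈ atoms (RingHom.id F) r) ∧
      χ = D.prod * (X - 1) ^ j ∧ Multiset.card D * w + j = n ∧ ((X - 1) ∣ χ → 0 < j) := by
  obtain ⟨D, j, hD, rfl⟩ := exists_decomp h
  obtain ⟨h1, h2⟩ := natDegree_prod_atoms hw D hD
  refine ⟨D, j, hD, rfl, ?_, fun hdv => Nat.pos_of_ne_zero ?_⟩
  · have := h.2.1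
    rwa [h1.natDegree_mul (monic_X_sub_one.pow j), natDegree_pow, natDegree_X_sub_one, mul_one, h2] at this
  · rintro rfl
    rw [pow_zero, mul_one] at hdv
    have hXi : Irreducible (X - 1 : F[X]) := by rw [← C_1]; exact irreducible_X_sub_C 1
    obtain ⟨A, hA, hdA⟩ := hXi.prime.exists_mem_multiset_dvd hdv
    obtain ⟨P, hP, rfl⟩ := Finset.mem_image.1 (hD A hA)
    rcases orbit_of_dvd_atom id_invol hP hXi monic_X_sub_one hdA with e | e
    · exact orbit_ne_X_sub_one hrF hP e.symm
    · exact orbit_ne_X_sub_one hrF (dual_mem_orbit id_invol hP) e.symm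

theorem HasElt.cast {k l : ℕ} {χ : F[X]} (h : HasElt r (hyp k : _ → F) χ) (e : k = l) :
    HasElt r (hyp l : _ → F) χ := e ▸ h

theorem finrank_hyp (k : ℕ) : finrank F ((Fin k → F) × (Fin k → F)) = 2 * k := by
  simp [two_mul]

theorem HasElt.pad {k l : ℕ} {χ : F[X]} (h : HasElt r (hyp k : _ → F) χ) (hkl : k ≤ l) :
    HasElt r (hyp l : _ → F) (χ * (X - 1) ^ (2 * (l - k))) := by
  have h1 := (h.sum (hasElt_one r (hyp (l - k) : _ → F))).map (similar_hyp_add k (l - k))
  rw [finrank_hyp] at h1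
  exact h1.cast (by omega)

/-- Pairs of dual blocks live in hyperbolic spaces. -/
theorem hasElt_hyp_odd (hrF : (r : F) ≠ 0) (hdeg : ∀ P ∈ orbitPolys F r, P.natDegree = i)
    (hw : ∀ A ∈ atoms (RingHom.id F) r, A.natDegree = 2 * i) (D : Multiset F[X])
    (hD : ∀ A ∈ D, A ∈ atoms (RingHom.id F) r) :
    HasElt r (hyp (Multiset.card D * i) : _ → F) D.prod := by
  suffices h : ∃ P : F[X], P.Monic ∧ P.natDegree = Multiset.card D * i ∧
      (∀ T : F[X], Irreducible T → T.Monic → T ∣ P → T ∣ X ^ r - 1) ∧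
      P * conjRecip (RingHom.id F) P = D.prod by
    obtain ⟨P, hm, hd, hf, hP⟩ := h
    rw [← hP]
    exact hasElt_hyp hrF hm hd hf
  induction D using Multiset.induction_on with
  | empty =>
    exact ⟨1, monic_one, by simp, fun T hT _ h => absurd (isUnit_of_dvd_one h) hT.not_isUnit,
      by simp [SelfDualCount.conjRecip_one]⟩
  | cons a D ih =>
    obtain ⟨P, hm, hd, hf, hP⟩ := ih fun A hA => hD A (Multiset.mem_cons_of_mem hA)
    obtain ⟨S, hS, rfl⟩ := Finset.mem_image.1 (hD _ (Multiset.mem_cons_self _ _))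
    obtain ⟨hSi, hSm, -⟩ := (mem_orbitPolys S).1 hS
    have ha := hw _ (hD _ (Multiset.mem_cons_self _ _))
    have hmv : conjRecip (RingHom.id F) S ≠ S := fun e => by
      rw [atom, if_pos e, hdeg S hS] at ha
      have := hSi.natDegree_pos
      rw [hdeg S hS] at this
      omega
    refine ⟨S * P, hSm.mul hm, ?_, fun T hT hTm hTd => ?_, ?_⟩
    · rw [hSm.natDegree_mul hm, hdeg S hS, hd, Multiset.card_cons]; ring
    · rcases hT.prime.dvd_or_dvd hTd with h | h
      · exact h.trans (dvd_X_pow_of_mem_orbit hS)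
      · exact hf T hT hTm h
    · rw [Multiset.prod_cons, ← hP, conjRecip_mul, atom, if_neg hmv]
      ring

theorem mem_orbit_of_fixed (hdeg : ∀ P ∈ orbitPolys F r, P.natDegree = i)
    (hw : ∀ A ∈ atoms (RingHom.id F) r, A.natDegree = i) {A : F[X]}
    (hA : A ∈ atoms (RingHom.id F) r) : A ∈ orbitPolys F r := by
  obtain ⟨S, hS, rfl⟩ := Finset.mem_image.1 hA
  have ha := hw _ hA
  unfold atom at ha ⊢
  split_ifs at ha ⊢ with h
  · exact hS
  · obtain ⟨hSi, hSm, -⟩ := (mem_orbitPolys S).1 hS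
    rw [hSm.natDegree_mul ((mem_orbitPolys _).1 (dual_mem_orbit id_invol hS)).2.1, hdeg S hS,
      hdeg _ (dual_mem_orbit id_invol hS)] at ha
    have := hSi.natDegree_pos
    rw [hdeg S hS] at this
    omega

/-- An even number of elliptic blocks lives in a hyperbolic space. -/
theorem hasElt_hyp_even (hrF : (r : F) ≠ 0) (hi : i = orderOf (Fintype.card F : ZMod r)) {k : ℕ}
    (hk : i = 2 * (k + 1)) : ∀ (b : ℕ) (D : Multiset F[X]), (∀ A ∈ D, A ∈ orbitPolys F r) →
      Multiset.card D = 2 * b → HasElt r (hyp (b * i) : _ → F) D.prod := by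
  intro b
  induction b with
  | zero =>
    intro D _ hc
    obtain rfl : D = 0 := Multiset.card_eq_zero.1 (by simpa using hc)
    rw [Multiset.prod_zero]
    have := hasElt_one r (hyp 0 : _ → F)
    rw [finrank_hyp, mul_zero, pow_zero] at this
    exact this.cast (zero_mul i).symm
  | succ b ih =>
    intro D hD hc
    obtain ⟨x, hx⟩ := Multiset.card_pos_iff_exists_mem.1 (show 0 < Multiset.card D by omega)
    obtain ⟨D₁, rfl⟩ := Multiset.exists_cons_of_mem hx
    rw [Multiset.card_cons] at hc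
    obtain ⟨y, hy⟩ := Multiset.card_pos_iff_exists_mem.1 (show 0 < Multiset.card D₁ by omega)
    obtain ⟨D₂, rfl⟩ := Multiset.exists_cons_of_mem hy
    rw [Multiset.card_cons] at hc
    obtain ⟨a, c, hac⟩ := exists_aniso (F := F)
    have hx' : x ∈ orbitPolys F r := hD x (Multiset.mem_cons_self _ _)
    have hy' : y ∈ orbitPolys F r := hD y (Multiset.mem_cons_of_mem (Multiset.mem_cons_self _ _))
    have h1 := ((hasElt_elliptic hrF hi hac hk hx').sum (hasElt_elliptic hrF hi hac hk hy').neg).map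
      (exists_double_of_finrank (isNondegQF_quadFormMinus (F := F) k a c hac) (n := i)
        (by rw [hk]; simp; omega))
    have h2 := (h1.sum (ih D₂ (fun A hA => hD A (Multiset.mem_cons_of_mem (Multiset.mem_cons_of_mem hA)))
      (by omega))).map (similar_hyp_add i (b * i))
    rw [Multiset.prod_cons, Multiset.prod_cons, ← mul_assoc]
    exact h2.cast (by ring)

/-- The blocks available inside a hyperbolic space. -/
theorem hasElt_hyp_atoms (hr2 : r ≠ 2) (hrF : (r : F) ≠ 0)
    (hi : i = orderOf (Fintype.card F : ZMod r))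
    (hw : ∀ A ∈ atoms (RingHom.id F) r, A.natDegree = w) (hwi : w = if Odd i then 2 * i else i)
    (D : Multiset F[X]) (hD : ∀ A ∈ D, A ∈ atoms (RingHom.id F) r)
    (hev : Odd i ∨ Even (Multiset.card D)) :
    ∃ k, 2 * k = Multiset.card D * w ∧ HasElt r (hyp k : _ → F) D.prod := by
  have hdeg : ∀ P ∈ orbitPolys F r, P.natDegree = i := fun P hP => by
    rw [natDegree_of_dvd_cyclotomic hrF ((mem_orbitPolys P).1 hP).1 ((mem_orbitPolys P).1 hP).2.2, hi]
  by_cases ho : Odd i
  · rw [if_pos ho] at hwi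
    subst hwi
    exact ⟨_, by ring, hasElt_hyp_odd hrF hdeg hw D hD⟩
  · rw [if_neg ho] at hwi
    subst hwi
    obtain ⟨b, hb⟩ := hev.resolve_left ho
    obtain ⟨k, hk⟩ := Nat.not_odd_iff_even.1 ho
    have hpos : 0 < w := hi ▸ orderOf_card_pos' hrF
    exact ⟨b * w, by rw [hb]; ring, hasElt_hyp_even hrF hi (k := k - 1) (by omega) b D
      (fun A hA => mem_orbit_of_fixed hdeg hw (hD A hA)) (by omega)⟩

/-- An odd number of elliptic blocks: one elliptic space and a hyperbolic space. -/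
theorem hasElt_odd_blocks (hr2 : r ≠ 2) (hrF : (r : F) ≠ 0)
    (hi : i = orderOf (Fintype.card F : ZMod r))
    (hw : ∀ A ∈ atoms (RingHom.id F) r, A.natDegree = w) (hwi : w = if Odd i then 2 * i else i)
    (D : Multiset F[X]) (hD : ∀ A ∈ D, A ∈ atoms (RingHom.id F) r)
    (hev : ¬ (Odd i ∨ Even (Multiset.card D))) {a c : F}
    (hac : ∀ z₁ z₂ : F, z₁ ^ 2 + a * z₁ * z₂ + c * z₂ ^ 2 = 0 → z₁ = 0 ∧ z₂ = 0) :
    ∃ (k l : ℕ), 2 * l + 2 * (k + 1) = Multiset.card D * w ∧ ∃ T R : F[X], D.prod = T * R ∧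
      HasElt r (Cfsg.quadFormMinus k F a c) T ∧ HasElt r (hyp l : _ → F) R := by
  obtain ⟨ho, hodd⟩ := not_or.1 hev
  obtain ⟨T, hT⟩ := Multiset.card_pos_iff_exists_mem.1
    (show 0 < Multiset.card D from Nat.pos_of_ne_zero fun h => hodd (by rw [h]; exact Even.zero))
  obtain ⟨D', rfl⟩ := Multiset.exists_cons_of_mem hT
  obtain ⟨k₀, hk₀⟩ := Nat.not_odd_iff_even.1 ho
  have hpos : 0 < i := hi ▸ orderOf_card_pos' hrF
  have hdeg : ∀ P ∈ orbitPolys F r, P.natDegree = i := fun P hP => by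
    rw [natDegree_of_dvd_cyclotomic hrF ((mem_orbitPolys P).1 hP).1 ((mem_orbitPolys P).1 hP).2.2, hi]
  have hwe : w = i := by rw [hwi, if_neg ho]
  obtain ⟨l, hl, hl'⟩ := hasElt_hyp_atoms hr2 hrF hi hw hwi D'
    (fun A hA => hD A (Multiset.mem_cons_of_mem hA))
    (Or.inr (by rw [Multiset.card_cons, Nat.even_add_one, not_not] at hodd; exact hodd))
  exact ⟨k₀ - 1, l, by rw [hl, Multiset.card_cons, add_one_mul, hwe]; omega, T, D'.prod,
    Multiset.prod_cons _ _, hasElt_elliptic hrF hi hac (by omega)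
      (mem_orbit_of_fixed hdeg (hwe ▸ hw) (hD T (Multiset.mem_cons_self _ _))), hl'⟩

variable {m : ℕ} {χ : F[X]}

theorem finrank_sum_hyp (k : ℕ) : finrank F ((Fin k → F) × (Fin k → F)) = 2 * k := finrank_hyp k

theorem realise_plus (hr2 : r ≠ 2) (hrF : (r : F) ≠ 0) (hi : i = orderOf (Fintype.card F : ZMod r))
    (hw : ∀ A ∈ atoms (RingHom.id F) r, A.natDegree = w) (hwi : w = if Odd i then 2 * i else i)
    (hχ : IsAdm (RingHom.id F) r (2 * m) χ)
    (hcond : (X - 1) ∣ χ ∨ Odd i ∨ ¬ (i ∣ 2 * m ∧ Odd (2 * m / i))) :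
    HasElt r (Cfsg.quadFormPlus m F) χ := by
  obtain ⟨D, j, hD, rfl, hdim, hj⟩ := decomp_degree hχ hw hrF
  refine HasElt.map ?_ (similar_plus m)
  by_cases hev : Odd i ∨ Even (Multiset.card D)
  · obtain ⟨k, hk, hk'⟩ := hasElt_hyp_atoms hr2 hrF hi hw hwi D hD hev
    convert hk'.pad (l := m) (by omega) using 3
    omega
  · obtain ⟨a, c, hac⟩ := exists_aniso (F := F)
    obtain ⟨k, l, hkl, T, R, hTR, hT, hR⟩ := hasElt_odd_blocks hr2 hrF hi hw hwi D hD hev hac
    have hj0 : j ≠ 0 := by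
      rintro rfl
      obtain ⟨ho, hodd⟩ := not_or.1 hev
      rw [if_neg ho] at hwi
      subst hwi
      rcases hcond with h | h | h
      · exact (hj h).ne rfl
      · exact ho h
      · rw [add_zero] at hdim
        refine h ⟨⟨Multiset.card D, by rw [← hdim, mul_comm]⟩, ?_⟩
        rw [← hdim, Nat.mul_div_cancel _ (hi ▸ orderOf_card_pos' hrF)]
        exact Nat.not_even_iff_odd.1 hodd
    have hjev : j % 2 = 0 := by omega
    have h1 := (((hT.sum (hasElt_one r (fun v => -binForm a c v))).map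
      (similar_minus_neg_plane hac k)).sum hR).map (similar_hyp_add (k + 2) l)
    convert h1.pad (l := m) (by omega) using 1
    rw [finrank_fintype_fun_eq_card, Fintype.card_fin, hTR,
      show T * (X - 1) ^ 2 * R * (X - 1) ^ (2 * (m - (k + 2 + l))) =
        T * R * ((X - 1) ^ 2 * (X - 1) ^ (2 * (m - (k + 2 + l)))) by ring, ← pow_add]
    congr 2
    omega

theorem realise_minus (hr2 : r ≠ 2) (hrF : (r : F) ≠ 0) (hi : i = orderOf (Fintype.card F : ZMod r))
    (hw : ∀ A ∈ atoms (RingHom.id F) r, A.natDegree = w) (hwi : w = if Odd i then 2 * i else i)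
    {a c : F} (hac : ∀ z₁ z₂ : F, z₁ ^ 2 + a * z₁ * z₂ + c * z₂ ^ 2 = 0 → z₁ = 0 ∧ z₂ = 0)
    (hm : 1 ≤ m) (hχ : IsAdm (RingHom.id F) r (2 * m) χ)
    (hcond : (X - 1) ∣ χ ∨ ¬ ((Odd i ∧ i ∣ m) ∨ (¬ Odd i ∧ i ∣ 2 * m ∧ Even (2 * m / i)))) :
    HasElt r (Cfsg.quadFormMinus (m - 1) F a c) χ := by
  obtain ⟨D, j, hD, rfl, hdim, hj⟩ := decomp_degree hχ hw hrF
  refine HasElt.map ?_ (similar_minus (m - 1) a c)
  by_cases hev : Odd i ∨ Even (Multiset.card D)
  · obtain ⟨k, hk, hk'⟩ := hasElt_hyp_atoms hr2 hrF hi hw hwi D hD hev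
    have hj0 : j ≠ 0 := by
      rintro rfl
      rcases hcond with h | h
      · exact (hj h).ne rfl
      rw [add_zero] at hdim
      apply h
      by_cases ho : Odd i
      · rw [if_pos ho] at hwi
        subst hwi
        exact Or.inl ⟨ho, Multiset.card D, by linarith⟩
      · rw [if_neg ho] at hwi
        subst hwi
        refine Or.inr ⟨ho, ⟨Multiset.card D, by rw [← hdim, mul_comm]⟩, ?_⟩
        rw [← hdim, Nat.mul_div_cancel _ (hi ▸ orderOf_card_pos' hrF)]
        exact hev.resolve_left ho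
    convert (hk'.pad (l := m - 1) (by omega)).sum (hasElt_one r (binForm a c)) using 1
    rw [finrank_fintype_fun_eq_card, Fintype.card_fin, mul_assoc, ← pow_add]
    congr 2
    omega
  · obtain ⟨k, l, hkl, T, R, hTR, hT, hR⟩ := hasElt_odd_blocks hr2 hrF hi hw hwi D hD hev hac
    have h1 := ((hT.map ((similar_minus k a c).symm.trans (similar_comm _ _))).sum
      (hR.pad (l := m - 1 - k) (by omega))).map ((similar_absorb _ k (m - 1 - k)).trans (similar_comm _ _))
    rw [show k + (m - 1 - k) = m - 1 by omega] at h1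
    convert h1 using 1
    rw [hTR, mul_assoc]
    congr 3
    omega

theorem realise_odd (hr2 : r ≠ 2) (h2 : (2 : F) ≠ 0) (hrF : (r : F) ≠ 0)
    (hi : i = orderOf (Fintype.card F : ZMod r))
    (hw : ∀ A ∈ atoms (RingHom.id F) r, A.natDegree = w) (hwi : w = if Odd i then 2 * i else i)
    (hχ : IsAdm (RingHom.id F) r (2 * m + 1) χ) :
    HasElt r (Cfsg.quadFormOdd m F) χ := by
  obtain ⟨D, j, hD, rfl, hdim, -⟩ := decomp_degree hχ hw hrF
  refine HasElt.map ?_ (similar_odd m)
  by_cases hev : Odd i ∨ Even (Multiset.card D)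
  · obtain ⟨k, hk, hk'⟩ := hasElt_hyp_atoms hr2 hrF hi hw hwi D hD hev
    convert (hasElt_one r (sqForm : F → F)).sum (hk'.pad (l := m) (by omega)) using 1
    rw [finrank_self, mul_left_comm, ← pow_add]
    congr 2
    omega
  · obtain ⟨a, c, hac⟩ := exists_aniso (F := F)
    obtain ⟨k, l, hkl, T, R, hTR, hT, hR⟩ := hasElt_odd_blocks hr2 hrF hi hw hwi D hD hev hac
    let L : F → F := fun x => -(c - (a / 2) ^ 2) * x ^ 2
    have e0 : Similar (osum sqForm (hyp (1 + k)) : _ → F) (osum sqForm (hyp (k + 1))) := by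
      rw [add_comm 1 k]
      exact Similar.of_equiv (LinearEquiv.refl F _) fun _ => rfl
    have e1 : Similar (osum (Cfsg.quadFormMinus k F a c) L) (osum sqForm (hyp (k + 1))) :=
      (((((similar_minus k a c).symm.sum_left L).trans (similar_assoc _ _ _)).trans
        ((similar_plane_line h2 (four_mul_sub_sq_ne_zero hac)).sum_right (hyp k))).trans
        (similar_comm _ _)).trans ((similar_absorb _ 1 k).trans e0)
    have h1 := (((hT.sum (hasElt_one r L)).map e1).sum
      (hR.pad (l := m - (k + 1)) (by omega))).map (similar_absorb _ (k + 1) (m - (k + 1)))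
    rw [show k + 1 + (m - (k + 1)) = m by omega] at h1
    convert h1 using 1
    rw [finrank_self, hTR,
      show T * (X - 1) ^ 1 * (R * (X - 1) ^ (2 * (m - (k + 1) - l))) =
        T * R * ((X - 1) ^ 1 * (X - 1) ^ (2 * (m - (k + 1) - l))) by ring, ← pow_add]
    congr 2
    omega

end CfsgLib.OrthPrimeClasses
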